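-- CS3 (S4284), part END, package [E5A]: class sizes of the elements of the complement L.
import Mathlib
import Cfsg.Agent.Lib.Helper79.CS3.EndDefs

set_option autoImplicit false

namespace Cfsg.Agent.Lib.Helper29.CS3

open Cfsg.Agent.Lib.Helper81.CS3 Cfsg.Agent.Lib.Helper79.CS3

universe u

theorem relIndex_mul_card_inf {G : Type u} [Group G] (H K : Subgroup G) :
    H.relIndex K * Nat.card ↥(H ⊓ K) = Nat.card K := by
  have h1 := Subgroup.card_mul_index ((H ⊓ K).subgroupOf K)
  have h2 : Nat.card ↥((H ⊓ K).subgroupOf K) = Nat.card ↥(H ⊓ K) :=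
    Nat.card_congr (Subgroup.subgroupOfEquivOfLe inf_le_right).toEquiv
  rw [h2] at h1
  have h3 : ((H ⊓ K).subgroupOf K).index = H.relIndex K := by
    rw [Subgroup.inf_subgroupOf_right]; rfl
  rw [h3, mul_comm] at h1
  exact h1

/-- a normal subgroup with a complement: the index is the order of the complement -/
theorem index_eq_card_of_compl {G : Type u} [Group G] (Q L : Subgroup G) [Q.Normal]
    (hinf : Q ⊓ L = ⊥) (hsup : Q ⊔ L = ⊤) : Q.index = Nat.card L := by
  have e1 : Q.relIndex (Q ⊔ L) = Q.relIndex L := Subgroup.relIndex_sup_left L Q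
  rw [hsup, Subgroup.relIndex_top_right] at e1
  rw [e1, ← Subgroup.inf_relIndex_right, hinf, Subgroup.relIndex_bot_left]

/-- **[E5A]** -/
theorem pkgE5a_of (hCent : PkgCent.{u}) (hE1 : PkgE1.{u}) : PkgE5a.{u} := by
  intro G _ _ m n Q L hS w hw
  have hyp := hS.hyp
  have hQn := hS.qn
  have hinf := hS.inf
  have hsup := hS.sup
  obtain ⟨C, hC⟩ : ∃ C : Subgroup G, C = Subgroup.centralizer ({w} : Set G) := ⟨_, rfl⟩
  rw [← hC]
  have h1 := hCent Q L (fun l _ q hq => hQn.conj_mem q hq l) hinf w hw
  rw [hsup, inf_top_eq, ← hC] at h1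
  have hL : Q.index = Nat.card L := index_eq_card_of_compl Q L hinf hsup
  have hG : Nat.card Q * Nat.card L = Nat.card G := by
    rw [← hL]; exact Subgroup.card_mul_index Q
  have ha : C.relIndex Q * Nat.card ↥(C ⊓ Q) = Nat.card Q := relIndex_mul_card_inf C Q
  have hb : C.relIndex L * Nat.card ↥(C ⊓ L) = Nat.card L := relIndex_mul_card_inf C L
  have hi : C.index * Nat.card C = Nat.card G := by
    rw [mul_comm]; exact Subgroup.card_mul_index C
  have hprod : C.index = C.relIndex Q * C.relIndex L := by
    have hpos : 0 < Nat.card C := Nat.card_pos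
    have h2 : C.index * Nat.card C = (C.relIndex Q * C.relIndex L) * Nat.card C := by
      calc C.index * Nat.card C = Nat.card Q * Nat.card L := by rw [hi, hG]
        _ = (C.relIndex Q * Nat.card ↥(C ⊓ Q)) * (C.relIndex L * Nat.card ↥(C ⊓ L)) := by
          rw [ha, hb]
        _ = (C.relIndex Q * C.relIndex L) * Nat.card C := by rw [h1]; ring
    exact Nat.eq_of_mul_eq_mul_right hpos h2
  have hdvda : C.relIndex Q ∣ Nat.card Q := Subgroup.relIndex_dvd_card C Q
  have hdvdb : C.relIndex L ∣ Q.index := by rw [hL]; exact Subgroup.relIndex_dvd_card C L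
  constructor
  · intro hwQ
    have hQC : Q ≤ C := by
      intro q hq
      rw [hC, Subgroup.mem_centralizer_iff]
      intro h hh
      rw [Set.mem_singleton_iff] at hh
      subst hh
      exact (Subgroup.mem_centralizer_iff.1 hwQ q hq).symm
    have ha1 : C.relIndex Q = 1 := Subgroup.relIndex_eq_one.2 hQC
    rw [hprod, ha1, one_mul]
  · intro hwQ
    have hi3 : C.index = m * n := by
      have hmem : C.index ∈
          Set.range (fun x : G => (Subgroup.centralizer ({x} : Set G)).index) := ⟨w, by rw [hC]⟩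
      rw [hyp.2.2.2.2] at hmem
      rcases hmem with h | h | h
      · exact absurd ((hE1 m n Q L hS w).2 (Or.inl (by rw [← hC]; exact h))) hwQ
      · exact absurd ((hE1 m n Q L hS w).2 (Or.inr (by rw [← hC]; exact h))) hwQ
      · exact h
    have hab : C.relIndex Q * C.relIndex L = m * n := by rw [← hprod, hi3]
    have hcopa : (C.relIndex Q).Coprime m := Nat.Coprime.coprime_dvd_left hdvda hS.qm
    have hcopb : (C.relIndex L).Coprime n := Nat.Coprime.coprime_dvd_left hdvdb hS.qi
    have ha_n : C.relIndex Q ∣ n :=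
      hcopa.dvd_of_dvd_mul_left ⟨C.relIndex L, hab.symm⟩
    have hb_m : C.relIndex L ∣ m :=
      hcopb.dvd_of_dvd_mul_right ⟨C.relIndex Q, by rw [← hab, mul_comm]⟩
    have hm0 : 0 < m := by have := hyp.2.1; omega
    have hn0 : 0 < n := by have := hyp.2.2.1; omega
    have hale : C.relIndex Q ≤ n := Nat.le_of_dvd hn0 ha_n
    have hble : C.relIndex L ≤ m := Nat.le_of_dvd hm0 hb_m
    have hbm : C.relIndex L = m := by
      by_contra hne
      have hlt : C.relIndex L < m := lt_of_le_of_ne hble hne
      have h3 : C.relIndex Q * C.relIndex L < m * n := by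
        calc C.relIndex Q * C.relIndex L ≤ n * C.relIndex L := Nat.mul_le_mul_right _ hale
          _ < n * m := Nat.mul_lt_mul_of_pos_left hlt hn0
          _ = m * n := mul_comm _ _
      omega
    have han : C.relIndex Q = n := by
      rw [hbm] at hab
      have h4 : C.relIndex Q * m = n * m := by rw [hab, mul_comm]
      exact Nat.eq_of_mul_eq_mul_right hm0 h4
    exact ⟨hbm, han, hi3⟩

end Cfsg.Agent.Lib.Helper29.CS3
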