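-- CS3 (S4284), part END, package [I1]: in CASE I, C_P(Q) is abelian of index m in P and equals
-- C_P(y) for y in Q not central, and C_P(a) for a in C_P(Q) not central.
import Mathlib
import Cfsg.Agent.Lib.Helper79.CS3.EndDefs

set_option autoImplicit false

namespace Cfsg.Agent.Lib.Helper29.CS3

open Cfsg.Agent.Lib.Helper81.CS3 Cfsg.Agent.Lib.Helper79.CS3

universe u

theorem mem_cent_single {G : Type u} [Group G] (g y : G) :
    g ∈ Subgroup.centralizer ({y} : Set G) ↔ g * y = y * g := by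
  rw [Subgroup.mem_centralizer_iff]
  constructor
  · intro h
    exact (h y rfl).symm
  · intro h z hz
    rw [Set.mem_singleton_iff] at hz
    subst hz
    exact h.symm

/-- **[I1]** -/
theorem pkgI1_of (hE1 : PkgE1.{u}) (hE4 : PkgE4.{u}) (hE5a : PkgE5a.{u}) (hE7 : PkgE7.{u}) :
    PkgI1.{u} := by
  intro G _ _ m n Q P p hS hI
  have hS0 := hS.s0
  have hyp := hS0.hyp
  have hm1 : 1 < m := hyp.2.1
  obtain ⟨a0, ha0P, ha0Q, ha0Z⟩ := hI
  obtain ⟨-, y0, hy0Q, hy0Z⟩ := hE4 m n Q P hS0
  have hrelA : ∀ a ∈ P, a ∈ Subgroup.centralizer (Q : Set G) → a ∉ Subgroup.center G →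
      (Subgroup.centralizer ({a} : Set G)).relIndex P = m := by
    intro a haP haQ haZ
    have h1 := (hE5a m n Q P hS0 a haP).1 haQ
    rw [h1]
    rcases (hE1 m n Q P hS0 a).1 haQ with h | h
    · exfalso
      apply haZ
      rw [Subgroup.index_eq_one] at h
      rw [Subgroup.mem_center_iff]
      intro g
      have hg : g ∈ Subgroup.centralizer ({a} : Set G) := by rw [h]; exact Subgroup.mem_top g
      exact (mem_cent_single g a).1 hg
    · exact h
  have hcomm : ∀ y ∈ Q, y ∉ Subgroup.center G → ∀ u ∈ P, u * y = y * u → ∀ v ∈ P,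
      v * y = y * v → u * v = v * u :=
    fun y hy hyZ => (hE7 m n Q P p hS y hy hyZ).2
  have hrelY : ∀ y ∈ Q, y ∉ Subgroup.center G →
      (Subgroup.centralizer ({y} : Set G)).relIndex P = m :=
    fun y hy hyZ => (hE7 m n Q P p hS y hy hyZ).1
  have hcq : ∀ a, a ∈ Subgroup.centralizer (Q : Set G) → ∀ y ∈ Q, a * y = y * a := by
    intro a ha y hy
    exact ((Subgroup.mem_centralizer_iff.1 ha) y hy).symm
  have key : ∀ a ∈ P, a ∈ Subgroup.centralizer (Q : Set G) → a ∉ Subgroup.center G →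
      ∀ g ∈ P, g * a = a * g → g ∈ Subgroup.centralizer (Q : Set G) := by
    intro a haP haQ haZ g hgP hga
    rw [Subgroup.mem_centralizer_iff]
    intro y hy
    by_cases hyZ : y ∈ Subgroup.center G
    · exact (Subgroup.mem_center_iff.1 hyZ g).symm
    · have hle : Subgroup.centralizer ({y} : Set G) ⊓ P ≤
          Subgroup.centralizer ({a} : Set G) ⊓ P := by
        intro u hu
        have hu' := Subgroup.mem_inf.1 hu
        exact Subgroup.mem_inf.2 ⟨(mem_cent_single u a).2
          (hcomm y hy hyZ u hu'.2 ((mem_cent_single u y).1 hu'.1) a haP (hcq a haQ y hy)), hu'.2⟩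
      have h1 := Subgroup.relIndex_mul_relIndex (H := Subgroup.centralizer ({y} : Set G) ⊓ P)
        (K := Subgroup.centralizer ({a} : Set G) ⊓ P) (L := P) hle inf_le_right
      rw [Subgroup.inf_relIndex_right, Subgroup.inf_relIndex_right, hrelA a haP haQ haZ,
        hrelY y hy hyZ] at h1
      have h2 : (Subgroup.centralizer ({y} : Set G) ⊓ P).relIndex
          (Subgroup.centralizer ({a} : Set G) ⊓ P) = 1 := by
        have hm0 : 0 < m := by omega
        have h4 : (Subgroup.centralizer ({y} : Set G) ⊓ P).relIndex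
            (Subgroup.centralizer ({a} : Set G) ⊓ P) * m = 1 * m := by rw [h1, one_mul]
        exact Nat.eq_of_mul_eq_mul_right hm0 h4
      have h3 := Subgroup.relIndex_eq_one.1 h2
      have hg : g ∈ Subgroup.centralizer ({a} : Set G) ⊓ P :=
        Subgroup.mem_inf.2 ⟨(mem_cent_single g a).2 hga, hgP⟩
      have h5 := (Subgroup.mem_inf.1 (h3 hg)).1
      exact ((mem_cent_single g y).1 h5).symm
  refine ⟨?_, ?_, ?_, key⟩
  · have heq : Subgroup.centralizer (Q : Set G) ⊓ P =
        Subgroup.centralizer ({a0} : Set G) ⊓ P := by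
      apply le_antisymm
      · intro u hu
        have hu' := Subgroup.mem_inf.1 hu
        exact Subgroup.mem_inf.2 ⟨(mem_cent_single u a0).2
          (hcomm y0 hy0Q hy0Z u hu'.2 (hcq u hu'.1 y0 hy0Q) a0 ha0P (hcq a0 ha0Q y0 hy0Q)), hu'.2⟩
      · intro u hu
        have hu' := Subgroup.mem_inf.1 hu
        exact Subgroup.mem_inf.2 ⟨key a0 ha0P ha0Q ha0Z u hu'.2 ((mem_cent_single u a0).1 hu'.1),
          hu'.2⟩
    rw [← Subgroup.inf_relIndex_right, heq, Subgroup.inf_relIndex_right]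
    exact hrelA a0 ha0P ha0Q ha0Z
  · intro u hu huQ v hv hvQ
    exact hcomm y0 hy0Q hy0Z u hu (hcq u huQ y0 hy0Q) v hv (hcq v hvQ y0 hy0Q)
  · intro y hy hyZ g hg hgy
    apply key a0 ha0P ha0Q ha0Z g hg
    exact hcomm y hy hyZ g hg hgy a0 ha0P (hcq a0 ha0Q y hy)

end Cfsg.Agent.Lib.Helper29.CS3
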